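import Cfsg.Agent.S0799
import Cfsg.Agent.S0806
import Cfsg.Agent.SmallSimple.PSLTwoPart

/-!
# S5719, `PSU₄(q)`, `q` even: the subgroups of odd order of `SL₂(q)` (helper715 for helper361)

* `card_le_of_odd` : a subgroup of odd order of `SL₂(q)`, `q` even, has order at most `q + 1`;
* `num` : `i ^ 5 < q ^ 6`, `i * r = q * (q ^ 2 - 1)`, `r ≤ q + 1` are contradictory for `q ≥ 4`.
-/

set_option autoImplicit false
set_option linter.unusedSectionVars false

namespace Cfsg.Agent.H715.IFU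

open Subgroup Matrix

section card

variable {F : Type*} [Field F] [Fintype F]

theorem even_card (h2 : (2 : F) = 0) : Even (Fintype.card F) := by
  have : CharP F 2 := CharTwo.of_one_ne_zero_of_two_eq_zero one_ne_zero h2
  obtain ⟨n, hn⟩ := FiniteField.card F 2
  rw [hn.2]
  exact (even_iff_two_dvd).2 (dvd_pow_self 2 n.ne_zero)

theorem even_psl (h : Even (Fintype.card F)) : Even (Nat.card (ProjectiveSpecialLinearGroup (Fin 2) F)) := by
  rw [Cfsg.Agent.SmallSimple.PSLTwoPart.card_psl_two_even h]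
  exact h.mul_right _

theorem card_pgl : Nat.card (ProjGenLinGroup (Fin 2) F) =
    Nat.gcd 2 (Fintype.card F - 1) * Nat.card (ProjectiveSpecialLinearGroup (Fin 2) F) := by
  classical
  have h1 := Cfsg.Agent.S0243.result (F := F) rfl 2 le_rfl
  have h2 : Nat.card (ProjGenLinGroup (Fin 2) F) * (Fintype.card F - 1) = Nat.card (GL (Fin 2) F) :=
    Cfsg.Agent.ClassicalGeometry.PSL2Basic.card_PGL_mul (Fin 2) F
  rw [Matrix.card_GL_field, ← h1] at h2
  have h3 : 0 < Fintype.card F - 1 := by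
    have := Fintype.one_lt_card (α := F)
    omega
  have h4 : Nat.card (ProjGenLinGroup (Fin 2) F) * (Fintype.card F - 1) =
    (Nat.gcd 2 (Fintype.card F - 1) * Nat.card (ProjectiveSpecialLinearGroup (Fin 2) F)) *
      (Fintype.card F - 1) := by
    rw [h2]; ring
  exact Nat.eq_of_mul_eq_mul_right h3 h4

theorem even_pgl (h : Even (Fintype.card F)) : Even (Nat.card (ProjGenLinGroup (Fin 2) F)) := by
  rw [card_pgl]
  exact (even_psl h).mul_left _

theorem center_eq_bot (h2 : (2 : F) = 0) : center (Matrix.SpecialLinearGroup (Fin 2) F) = ⊥ := by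
  rw [eq_bot_iff]
  intro g hg
  obtain ⟨r, hr, he⟩ := Matrix.SpecialLinearGroup.mem_center_iff.1 hg
  have h3 : r = 1 := by
    have h4 : (r - 1) ^ 2 = 0 := by
      have h5 : r ^ 2 = 1 := by
        rw [← hr, Fintype.card_fin]
      linear_combination h5 + (1 - r) * h2
    exact sub_eq_zero.1 (pow_eq_zero_iff (by norm_num) |>.1 h4)
  rw [mem_bot]
  apply Subtype.ext
  rw [← he, h3, map_one, Matrix.SpecialLinearGroup.coe_one]

/-- odd subgroups of `N(P)` -/
theorem norm_le (h2 : (2 : F) = 0) (h4 : 4 ≤ Fintype.card F) (P : Sylow 2 (ProjectiveSpecialLinearGroup (Fin 2) F))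
    {K : Subgroup (ProjectiveSpecialLinearGroup (Fin 2) F)}
    (hK : K ≤ normalizer ((P : Subgroup (ProjectiveSpecialLinearGroup (Fin 2) F)) :
      Set (ProjectiveSpecialLinearGroup (Fin 2) F))) (ho : Odd (Nat.card K)) :
    Nat.card K ≤ Fintype.card F + 1 := by
  classical
  have : Fact (Nat.Prime 2) := ⟨Nat.prime_two⟩
  have hfin : Finite (ProjectiveSpecialLinearGroup (Fin 2) F) := Quotient.finite _
  have hev := even_card h2
  have hG := Cfsg.Agent.SmallSimple.PSLTwoPart.card_psl_two_even hev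
  have hs : IsSimpleGroup (ProjectiveSpecialLinearGroup (Fin 2) F) :=
    ProjectiveSpecialLinearGroup.rank_two_simple (by rw [Nat.card_eq_fintype_card]; exact h4)
  obtain ⟨n, hn⟩ : ∃ n : ℕ, Fintype.card F = 2 ^ n := by
    have : CharP F 2 := CharTwo.of_one_ne_zero_of_two_eq_zero one_ne_zero h2
    obtain ⟨n, hn⟩ := FiniteField.card F 2
    exact ⟨n, hn.2⟩
  set q := Fintype.card F with hq
  have hodd : Odd (q ^ 2 - 1) := by
    obtain ⟨r, hr⟩ := hev
    have h5 : 1 ≤ q ^ 2 := Nat.one_le_pow _ _ (by omega)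
    have h6 : q ^ 2 = 2 * (2 * (r * r)) := by rw [hr]; ring
    exact ⟨2 * (r * r) - 1, by omega⟩
  have hPq : q ∣ Nat.card P := by
    rw [hn]
    apply P.pow_dvd_card_of_pow_dvd_card
    rw [hG, ← hn]
    exact Dvd.intro _ rfl
  have hPle : q ≤ Nat.card P := Nat.le_of_dvd Nat.card_pos hPq
  have hNt : normalizer ((P : Subgroup (ProjectiveSpecialLinearGroup (Fin 2) F)) :
      Set (ProjectiveSpecialLinearGroup (Fin 2) F)) ≠ ⊤ := by
    intro ht
    have hn' : (P : Subgroup (ProjectiveSpecialLinearGroup (Fin 2) F)).Normal := normalizer_eq_top_iff.1 ht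
    rcases hn'.eq_bot_or_eq_top with h5 | h5
    · have h6 : Nat.card P = 1 := by
        have h7 : Nat.card (P : Subgroup (ProjectiveSpecialLinearGroup (Fin 2) F)) = 1 := by rw [h5, card_bot]
        exact h7
      omega
    · obtain ⟨k, hk⟩ := (IsPGroup.iff_card (p := 2)).1 P.isPGroup'
      have h6 : Nat.card (ProjectiveSpecialLinearGroup (Fin 2) F) = 2 ^ k := by
        rw [← hk, ← Subgroup.card_top]
        exact (congrArg (fun H : Subgroup (ProjectiveSpecialLinearGroup (Fin 2) F) => Nat.card H) h5).symm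
      have h7 : q ^ 2 - 1 ∣ 2 ^ k := by
        rw [← h6, hG]
        exact Dvd.intro_left _ rfl
      have h8 : Nat.Coprime (q ^ 2 - 1) (2 ^ k) := (Nat.Coprime.pow_right k (Nat.coprime_two_right.2 hodd))
      have h9 : q ^ 2 - 1 = 1 := Nat.Coprime.eq_one_of_dvd h8 h7
      have h10 : 16 ≤ q ^ 2 := by nlinarith
      omega
  have hidx := (Cfsg.Agent.S0806.result (F := F) (q := q) rfl (by
    intro hmem
    simp only [Finset.mem_insert, Finset.mem_singleton] at hmem
    obtain ⟨r, hr⟩ := hev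
    omega)).1 _ hNt
  have hdv : Nat.card K * Nat.card P ∣ Nat.card (normalizer ((P : Subgroup (ProjectiveSpecialLinearGroup (Fin 2) F)) :
      Set (ProjectiveSpecialLinearGroup (Fin 2) F))) := by
    apply Nat.Coprime.mul_dvd_of_dvd_of_dvd
    · obtain ⟨k, hk⟩ := (IsPGroup.iff_card (p := 2)).1 P.isPGroup'
      rw [hk]
      exact Nat.Coprime.pow_right k (Nat.coprime_two_right.2 ho)
    · exact Subgroup.card_dvd_of_le hK
    · exact Subgroup.card_dvd_of_le (le_normalizer)
  have h5 := Nat.le_of_dvd Nat.card_pos hdv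
  have h6 := (normalizer ((P : Subgroup (ProjectiveSpecialLinearGroup (Fin 2) F)) :
      Set (ProjectiveSpecialLinearGroup (Fin 2) F))).card_mul_index
  rw [hG] at h6
  have h7 : Nat.card K * q * (q + 1) ≤ q * (q ^ 2 - 1) := by
    rw [← h6]
    exact Nat.mul_le_mul ((Nat.mul_le_mul_left _ hPle).trans h5) hidx
  obtain ⟨r, hr⟩ : ∃ r, q = r + 1 := ⟨q - 1, by omega⟩
  have e1 : q ^ 2 - 1 = r * (r + 2) := by
    have : q ^ 2 = r * (r + 2) + 1 := by rw [hr]; ring
    omega
  rw [e1, hr] at h7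
  have h8 : Nat.card K * ((r + 1) * (r + 2)) ≤ r * ((r + 1) * (r + 2)) := by
    calc Nat.card K * ((r + 1) * (r + 2)) = Nat.card K * (r + 1) * (r + 1 + 1) := by ring
      _ ≤ _ := h7
      _ = _ := by ring
  have h9 := Nat.le_of_mul_le_mul_right h8 (by positivity)
  omega

theorem psl_le (h2 : (2 : F) = 0) (H : Subgroup (ProjectiveSpecialLinearGroup (Fin 2) F)) (hH : Odd (Nat.card H)) :
    Nat.card H ≤ Fintype.card F + 1 := by
  classical
  have : Fact (Nat.Prime 2) := ⟨Nat.prime_two⟩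
  have hchar : CharP F 2 := CharTwo.of_one_ne_zero_of_two_eq_zero one_ne_zero h2
  have hfin : Finite (ProjectiveSpecialLinearGroup (Fin 2) F) := Quotient.finite _
  have hev := even_card h2
  have hG := Cfsg.Agent.SmallSimple.PSLTwoPart.card_psl_two_even hev
  have h1q : 1 < Fintype.card F := Fintype.one_lt_card
  by_cases h4 : 4 ≤ Fintype.card F
  swap
  · have hq2 : Fintype.card F = 2 := by
      obtain ⟨r, hr⟩ := hev
      omega
    rw [hq2] at hG ⊢
    have h3 : Nat.card H ∣ 6 := by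
      have := H.card_subgroup_dvd_card
      rwa [hG] at this
    have h5 := Nat.le_of_dvd (by norm_num) h3
    interval_cases Nat.card H <;> simp_all (decide := true)
  have hodd : ∀ n : ℕ, Even n → Nat.card H ≠ n := by
    intro n hn h
    rw [h] at hH
    exact (Nat.not_even_iff_odd.2 hH) hn
  rcases Cfsg.Agent.S0799.result (F := F) (q := Fintype.card F) rfl 2 H with
    ⟨k, hk, ⟨-, hc⟩ | ⟨⟨e⟩⟩⟩ | ⟨P, K, hK, ⟨e⟩⟩ | ⟨⟨e⟩⟩ | ⟨⟨e⟩⟩ | ⟨⟨e⟩⟩ | ⟨K, _, _, m, hm, ⟨⟨e⟩⟩ | ⟨⟨e⟩⟩⟩
  · rw [hc]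
    rcases hk with hk | hk
    · refine (Nat.le_of_dvd ?_ hk).trans (Nat.div_le_self _ _)
      exact Nat.div_pos (by
        have := Nat.gcd_le_left (Fintype.card F - 1) (by norm_num : 0 < 2)
        omega) (Nat.gcd_pos_of_pos_left _ (by norm_num))
    · refine ((Nat.le_of_dvd ?_ hk).trans (Nat.div_le_self _ _)).trans (by omega)
      exact Nat.div_pos (by
        have := Nat.gcd_le_left (Fintype.card F - 1) (by norm_num : 0 < 2)
        omega) (Nat.gcd_pos_of_pos_left _ (by norm_num))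
  · exact absurd ((Nat.card_congr e.toEquiv).trans DihedralGroup.nat_card) (hodd _ (even_two_mul _))
  · rw [Nat.card_congr e.toEquiv] at hH ⊢
    exact norm_le h2 h4 P hK hH
  · refine absurd ((Nat.card_congr e.toEquiv).trans ?_) (hodd 12 (by decide))
    rw [nat_card_alternatingGroup]
    simp [Nat.factorial]
  · refine absurd ((Nat.card_congr e.toEquiv).trans ?_) (hodd 24 (by decide))
    rw [Nat.card_eq_fintype_card, Fintype.card_perm, Fintype.card_fin]
    rfl
  · refine absurd ((Nat.card_congr e.toEquiv).trans ?_) (hodd 60 (by decide))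
    rw [nat_card_alternatingGroup]
    simp [Nat.factorial]
  all_goals
    have hKe : Even (Fintype.card K) := by
      rw [← hm] at hev
      exact (Nat.even_pow.1 hev).1
  · exact absurd (Nat.card_congr e.toEquiv) (hodd _ (even_psl hKe))
  · exact absurd (Nat.card_congr e.toEquiv) (hodd _ (even_pgl hKe))

/-- **The subgroups of odd order of `SL₂(q)`, `q` even.** -/
theorem card_le_of_odd (h2 : (2 : F) = 0) (R : Subgroup (Matrix.SpecialLinearGroup (Fin 2) F)) (hR : Odd (Nat.card R)) :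
    Nat.card R ≤ Fintype.card F + 1 := by
  have hinj : Function.Injective (QuotientGroup.mk' (center (Matrix.SpecialLinearGroup (Fin 2) F))) := by
    rw [← MonoidHom.ker_eq_bot_iff, QuotientGroup.ker_mk']
    exact center_eq_bot h2
  have h1 : Nat.card (R.map (QuotientGroup.mk' (center (Matrix.SpecialLinearGroup (Fin 2) F)))) = Nat.card R :=
    Subgroup.card_map_of_injective hinj
  rw [← h1] at hR ⊢
  exact psl_le h2 _ hR

end card

theorem num {q i r : ℕ} (hq : 4 ≤ q) (h1 : i ^ 5 < q ^ 6) (h2 : i * r = q * (q ^ 2 - 1)) (h3 : r ≤ q + 1) : False := by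
  obtain ⟨s, rfl⟩ : ∃ s, q = s + 1 := ⟨q - 1, by omega⟩
  have e1 : (s + 1) ^ 2 - 1 = s * (s + 2) := by
    have : (s + 1) ^ 2 = s * (s + 2) + 1 := by ring
    omega
  rw [e1] at h2
  have h4 : (s + 1) * s * (s + 2) ≤ i * (s + 2) := by
    calc (s + 1) * s * (s + 2) = i * r := by rw [h2]; ring
      _ ≤ i * (s + 2) := Nat.mul_le_mul_left _ h3
  have h5 : (s + 1) * s ≤ i := Nat.le_of_mul_le_mul_right h4 (by omega)
  have h6 : ((s + 1) * s) ^ 5 ≤ i ^ 5 := Nat.pow_le_pow_left h5 5
  have h7 : (s + 1) ^ 6 ≤ ((s + 1) * s) ^ 5 := by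
    rw [mul_pow, pow_succ (s + 1) 5]
    apply Nat.mul_le_mul_left
    calc s + 1 ≤ s * s := by nlinarith
      _ = s ^ 2 := (sq s).symm
      _ ≤ s ^ 5 := Nat.pow_le_pow_right (by omega) (by norm_num)
  omega

end Cfsg.Agent.H715.IFU
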